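import Cfsg.Agent.Classical.Semisimple.PGLOrderR
import Cfsg.Agent.Spec53.GUPrimeOrderClasses
import Cfsg.Agent.Classical.Unitary.Center

/-!
Classes of elements of prime order `r ∣ q + 1` in `GU_n(q)` modulo its centre.
-/

set_option autoImplicit false

namespace CfsgLib.PGUClasses

open Polynomial Cfsg CfsgLib.Classical.Semisimple CfsgLib.Classical.PGLOrderR

variable {F : Type*} [Field F] [Fintype F] {q n r : ℕ}

theorem conjRecip_X_pow_sub_C (hF : Fintype.card F = q ^ 2) (hr : 0 < r) {c : F}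
    (hc : c ^ (q + 1) = 1) :
    Spec53.conjRecip (Unitary.conjHom hF) (X ^ r - C c) = X ^ r - C c := by
  have hc0 : c ≠ 0 := fun h => by rw [h, zero_pow (Nat.succ_ne_zero q)] at hc; exact zero_ne_one hc
  have hq0 : q ≠ 0 := by have := Unitary.two_le_q hF; omega
  have hinv : c ^ q = c⁻¹ := eq_inv_of_mul_eq_one_left (by rw [← pow_succ]; exact hc)
  have h0 : (X ^ r - C c : F[X]).coeff 0 = -c := by simp [hr.ne]
  have hd : (X ^ r - C c : F[X]).natDegree = r := natDegree_X_pow_sub_C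
  refine Polynomial.ext fun k => ?_
  rcases le_or_gt k r with hk | hk
  · rw [Spec53.coeff_conjRecip (by rw [hd]; exact hk), hd, h0]
    simp only [coeff_sub, coeff_X_pow, coeff_C, map_neg, map_sub]
    rcases Nat.eq_zero_or_pos k with rfl | hk0
    · simp [hr.ne, hr.ne', hinv, hc0, zero_pow hq0]
    rcases eq_or_lt_of_le hk with rfl | hkr
    · simp [hk0.ne', hk0.ne, hinv, hc0, zero_pow hq0]
    · have a1 : r - k ≠ r := by omega
      have a2 : r - k ≠ 0 := by omega
      simp [a1, a2, hk0.ne', hkr.ne]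
  · rw [coeff_eq_zero_of_natDegree_lt (by
      rw [Spec53.natDegree_conjRecip (by rw [h0]; exact neg_ne_zero.2 hc0), hd]; exact hk),
      coeff_eq_zero_of_natDegree_lt (by rw [hd]; exact hk)]

theorem scal_mem_GU (hF : Fintype.card F = q ^ 2) {a : Fˣ} (ha : a ^ (q + 1) = 1) :
    (scal a : GL (Fin n) F) ∈ GU n F q := by
  have h1 : (a : F) ^ (q + 1) = 1 := by rw [← Units.val_pow_eq_pow_val, ha, Units.val_one]
  have h : (scal a : GL (Fin n) F) =
      (Unitary.diagGU (q := q) (fun _ : Fin n => (a : F)) fun _ => h1).1 :=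
    Units.ext (by rw [coe_scal, Unitary.diagGU_val]; rfl)
  rw [h]
  exact (Unitary.diagGU (q := q) (fun _ : Fin n => (a : F)) fun _ => h1).2

theorem pow_succ_eq_one_of_scal (hF : Fintype.card F = q ^ 2) [NeZero n] {a : Fˣ}
    (h : (scal a : GL (Fin n) F) ∈ GU n F q) : a ^ (q + 1) = 1 := by
  classical
  refine Units.ext ?_
  have h1 := Unitary.mem_GU.1 h (Pi.single 0 1) (Pi.single 0 1)
  rw [coe_scal, show (Matrix.scalar (Fin n) (a : F)).mulVec (Pi.single (0 : Fin n) 1)
      = (a : F) • Pi.single (0 : Fin n) 1 from by ext j; simp [Matrix.mulVec_diagonal],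
    Unitary.herm_self_smul, Unitary.herm_single_single hF, if_pos rfl, mul_one] at h1
  rw [Units.val_pow_eq_pow_val, Units.val_one]
  exact h1

theorem exists_scal_of_center (hF : Fintype.card F = q ^ 2) (hn : 2 ≤ n) {x : ↥(GU n F q)}
    (hx : x ∈ Subgroup.center ↥(GU n F q)) :
    ∃ a : Fˣ, a ^ (q + 1) = 1 ∧ (x : GL (Fin n) F) = scal a := by
  haveI : NeZero n := ⟨by omega⟩
  obtain ⟨c, hc⟩ := Unitary.eq_scalar_of_commute_SU hF hn
    ((x : GL (Fin n) F) : Matrix (Fin n) (Fin n) F) (fun B hB => by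
      have := Subgroup.mem_center_iff.1 hx ⟨Matrix.SpecialLinearGroup.toGL B, hB⟩
      exact (congrArg (fun z : ↥(GU n F q) => ((z : GL (Fin n) F) : Matrix (Fin n) (Fin n) F))
        this).symm)
  have hc0 : c ≠ 0 := by
    rintro rfl
    have hdet := Unitary.det_pow_succ_eq_one hF x.2
    rw [hc] at hdet
    simp [Matrix.det_zero] at hdet
  have he : (x : GL (Fin n) F) = scal (Units.mk0 c hc0) := Units.ext hc
  exact ⟨_, pow_succ_eq_one_of_scal hF (he ▸ x.2), he⟩

theorem center_GU_eq (hF : Fintype.card F = q ^ 2) (hn : 2 ≤ n) :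
    Subgroup.center ↥(GU n F q) =
      (Subgroup.center (GL (Fin n) F)).subgroupOf (GU n F q) := by
  ext x
  rw [Subgroup.mem_subgroupOf]
  refine ⟨fun h => ?_, fun h => Subgroup.mem_center_iff.2 fun y =>
    Subtype.ext (Subgroup.mem_center_iff.1 h y)⟩
  obtain ⟨a, -, ha⟩ := exists_scal_of_center hF hn h
  rw [ha]
  exact scal_mem_center a

theorem dvd_card_sub_one (hF : Fintype.card F = q ^ 2) (hrq : r ∣ q + 1) :
    r ∣ Fintype.card F - 1 := by
  rw [hF, show q ^ 2 - 1 = (q + 1) * (q - 1) by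
    simpa using Nat.sq_sub_sq q 1]
  exact hrq.mul_right _

/-- A power class of norm one contains only elements of norm one. -/
theorem pow_succ_eq_one_of_pow (hF : Fintype.card F = q ^ 2) (hr : r.Prime) (hr2 : r ≠ 2)
    (hrq : r ∣ q + 1) {a : Fˣ} (h : (a ^ r) ^ (q + 1) = 1) : a ^ (q + 1) = 1 := by
  classical
  have hnd : ¬ r ∣ q - 1 := by
    intro hd
    have hq := Unitary.two_le_q hF
    have h2 : r ∣ 2 := by
      have := Nat.dvd_sub hrq hd
      rwa [show q + 1 - (q - 1) = 2 by omega] at this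
    exact hr2 ((Nat.prime_dvd_prime_iff_eq hr Nat.prime_two).1 h2)
  have h1 : (a ^ (q + 1)) ^ (q - 1) = 1 := by
    rw [← pow_mul, show (q + 1) * (q - 1) = Fintype.card Fˣ by
      rw [Fintype.card_units, hF]; simpa using (Nat.sq_sub_sq q 1).symm]
    exact pow_card_eq_one
  have h2 : (a ^ (q + 1)) ^ r = 1 := by rw [← pow_mul, mul_comm, pow_mul]; exact h
  have h3 := Nat.dvd_gcd (orderOf_dvd_of_pow_eq_one h1) (orderOf_dvd_of_pow_eq_one h2)
  rw [((Nat.Prime.coprime_iff_not_dvd hr).2 hnd).symm.gcd_eq_one, Nat.dvd_one,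
    orderOf_eq_one_iff] at h3
  exact h3

/-- Every scalar is, modulo powers, of norm one. -/
theorem exists_norm_one_mul_pow (hF : Fintype.card F = q ^ 2) (hr : r.Prime) (hr2 : r ≠ 2)
    (hrq : r ∣ q + 1) (c : Fˣ) : ∃ a : Fˣ, (a ^ r * c) ^ (q + 1) = 1 := by
  classical
  set U : Subgroup Fˣ := (powMonoidHom (q + 1) : Fˣ →* Fˣ).ker
  set P : Subgroup Fˣ := (powMonoidHom r : Fˣ →* Fˣ).range
  obtain ⟨d, hd⟩ : (U ⊔ P).index ∣ r := by
    have h1 := index_powers (r := r) (dvd_card_sub_one hF hrq)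
    rw [← h1]
    exact Subgroup.index_dvd_of_le le_sup_right
  have htop : U ⊔ P = ⊤ := by
    rw [← Subgroup.index_eq_one]
    rcases (Nat.dvd_prime hr).1 ⟨d, hd⟩ with h | h
    · exact h
    exfalso
    have hle : U ≤ P := by
      have hP : P = U ⊔ P := by
        refine le_antisymm le_sup_right ?_
        rw [← Subgroup.relIndex_eq_one]
        have h2 := Subgroup.relIndex_mul_index (le_sup_right : P ≤ U ⊔ P)
        rw [h, index_powers (r := r) (dvd_card_sub_one hF hrq)] at h2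
        exact (Nat.mul_eq_right hr.ne_zero).1 h2
      rw [hP]; exact le_sup_left
    haveI : Fact r.Prime := ⟨hr⟩
    have hU : Nat.card U = q + 1 := by
      show Nat.card (powMonoidHom (q + 1) : Fˣ →* Fˣ).ker = q + 1
      rw [IsCyclic.card_powMonoidHom_ker, Unitary.card_units_eq hF]
      exact Nat.gcd_eq_right (dvd_mul_left _ _)
    obtain ⟨ζ, hζ⟩ := IsCyclic.exists_generator (α := U)
    obtain ⟨b, hb⟩ := hle ζ.2
    simp only [powMonoidHom_apply] at hb
    have hbU : b ∈ U := pow_succ_eq_one_of_pow hF hr hr2 hrq (by rw [hb]; exact ζ.2)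
    have hord : orderOf ζ = q + 1 := by rw [orderOf_eq_card_of_forall_mem_zpowers hζ, hU]
    have hb' : (⟨b, hbU⟩ : U) ^ r = ζ := Subtype.ext hb
    obtain ⟨e, he⟩ := hrq
    have h5 : ζ ^ e = 1 := by
      rw [← hb', ← pow_mul, ← he]
      exact Subtype.ext hbU
    have h6 := Nat.le_of_dvd (Nat.pos_of_ne_zero fun he0 => by rw [he0, mul_zero] at he; omega)
      (orderOf_dvd_of_pow_eq_one h5)
    rw [hord, he] at h6
    have := hr.two_le
    nlinarith [Nat.pos_of_ne_zero (show e ≠ 0 from fun he0 => by rw [he0, mul_zero] at he; omega)]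
  obtain ⟨u, hu, v, ⟨a, rfl⟩, huv⟩ := Subgroup.mem_sup.1
    (htop ▸ Subgroup.mem_top c : c ∈ U ⊔ P)
  refine ⟨a⁻¹, ?_⟩
  rw [← huv, powMonoidHom_apply, inv_pow, mul_comm u, inv_mul_cancel_left]
  exact hu

/-- The number of classes of elements of order `r` in `GU_n(q)` modulo its centre. -/
theorem card_classes_eq_pgl (hF : Fintype.card F = q ^ 2) (hn : 2 ≤ n) (hr : r.Prime)
    (hr2 : r ≠ 2) (hrq : r ∣ q + 1) :
    Nat.card {C : ConjClasses (↥(GU n F q) ⧸ Subgroup.center ↥(GU n F q)) //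
      ∃ g : ↥(GU n F q) ⧸ Subgroup.center ↥(GU n F q), ConjClasses.mk g = C ∧ orderOf g = r} =
    Nat.card {C : ConjClasses (GL (Fin n) F ⧸ Subgroup.center (GL (Fin n) F)) //
      ∃ g : GL (Fin n) F ⧸ Subgroup.center (GL (Fin n) F),
        ConjClasses.mk g = C ∧ orderOf g = r} := by
  classical
  haveI : NeZero n := ⟨by omega⟩
  haveI : Fact r.Prime := ⟨hr⟩
  obtain ⟨p, e, hp, hchar, -, -⟩ := Unitary.exists_char hF
  haveI := hchar
  haveI := Fact.mk hp
  have hrq' := dvd_card_sub_one hF hrq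
  let ι : ↥(GU n F q) ⧸ Subgroup.center ↥(GU n F q) →* GL (Fin n) F ⧸ Subgroup.center (GL (Fin n) F) :=
    QuotientGroup.map _ _ (GU n F q).subtype fun x hx => by
      rw [center_GU_eq hF hn] at hx
      exact hx
  have hι : Function.Injective ι := by
    refine (injective_iff_map_eq_one ι).2 fun x hx => ?_
    obtain ⟨g, rfl⟩ := QuotientGroup.mk_surjective x
    rw [show ι (QuotientGroup.mk g) = QuotientGroup.mk (g : GL (Fin n) F) from rfl, QuotientGroup.eq_one_iff] at hx
    rw [QuotientGroup.eq_one_iff, center_GU_eq hF hn]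
    exact hx
  have hscal : ∀ {g : ↥(GU n F q)}, orderOf (QuotientGroup.mk g :
      ↥(GU n F q) ⧸ Subgroup.center ↥(GU n F q)) = r →
      ∃ c : Fˣ, c ^ (q + 1) = 1 ∧ (g : GL (Fin n) F) ^ r = scal c := by
    intro g hg
    have h1 := orderOf_injective ι hι (QuotientGroup.mk g)
    rw [hg, show ι (QuotientGroup.mk g) = QuotientGroup.mk (g : GL (Fin n) F) from rfl, orderOf_mk_eq_iff hr] at h1
    obtain ⟨⟨c, hc⟩, -⟩ := h1
    have hc' : (g : GL (Fin n) F) ^ r = scal c := hc
    exact ⟨c, pow_succ_eq_one_of_scal hF (hc' ▸ pow_mem g.2 r), hc'⟩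
  refine Nat.card_eq_of_bijective (fun C => ⟨ConjClasses.map ι C.1, ?_⟩) ⟨?_, ?_⟩
  · obtain ⟨g, hg, ho⟩ := C.2
    exact ⟨ι g, by rw [← hg]; rfl, by rw [orderOf_injective ι hι, ho]⟩
  · rintro ⟨_, x, rfl, hx⟩ ⟨_, y, rfl, hy⟩ h
    obtain ⟨g, rfl⟩ := QuotientGroup.mk_surjective x
    obtain ⟨k, rfl⟩ := QuotientGroup.mk_surjective y
    refine Subtype.ext (ConjClasses.mk_eq_mk_iff_isConj.2 ?_)
    obtain ⟨c, hc1, hc⟩ := hscal hx
    obtain ⟨d, hd1, hd⟩ := hscal hy
    have h1 : IsConj (ι (QuotientGroup.mk g)) (ι (QuotientGroup.mk k)) :=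
      ConjClasses.mk_eq_mk_iff_isConj.1 (congrArg Subtype.val h)
    rw [show ι (QuotientGroup.mk g) = QuotientGroup.mk (g : GL (Fin n) F) from rfl, show ι (QuotientGroup.mk k) = QuotientGroup.mk (k : GL (Fin n) F) from rfl] at h1
    obtain ⟨a, ha⟩ := mk_isConj_iff.mp h1
    have hcd : c = a ^ r * d := scal_inj (n := n) (by
      rw [← pow_eq_of_isConj ha hc]
      show (scal a * (k : GL (Fin n) F)) ^ r = _
      rw [scal_mul_pow, hd, scal, ← map_mul])
    have ha1 : a ^ (q + 1) = 1 := pow_succ_eq_one_of_pow hF hr hr2 hrq (by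
      rw [hcd, mul_pow, hd1, mul_one] at hc1; exact hc1)
    let z : ↥(GU n F q) := ⟨scal a, scal_mem_GU hF ha1⟩
    have hz : z ∈ Subgroup.center ↥(GU n F q) := by
      rw [center_GU_eq hF hn]; exact scal_mem_center a
    have h2 := MonoidHom.map_isConj (QuotientGroup.mk' (Subgroup.center ↥(GU n F q)))
      (Spec53.gu_isConj_of_gl_isConj hF g (z * k) ha)
    rwa [map_mul, show QuotientGroup.mk' (Subgroup.center ↥(GU n F q)) z = 1 from
      (QuotientGroup.eq_one_iff z).2 hz, one_mul] at h2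
  · rintro ⟨_, x, rfl, hx⟩
    obtain ⟨g, rfl⟩ := QuotientGroup.mk_surjective x
    obtain ⟨⟨c, hc⟩, hgc⟩ := (orderOf_mk_eq_iff hr).mp hx
    suffices hk : ∃ k : ↥(GU n F q), ∃ a : Fˣ, IsConj (k : GL (Fin n) F) (scal a * g) by
      obtain ⟨k, a, ha⟩ := hk
      have hconj : IsConj (ι (QuotientGroup.mk k)) (QuotientGroup.mk g) := by
        exact mk_isConj_iff.2 ⟨a, ha⟩
      have ho : orderOf (QuotientGroup.mk k : ↥(GU n F q) ⧸ Subgroup.center ↥(GU n F q)) = r := by
        obtain ⟨u, hu⟩ := isConj_iff.1 hconj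
        rw [← orderOf_injective ι hι, ← hx, ← hu]
        exact (orderOf_injective (MulAut.conj u).toMonoidHom (MulAut.conj u).injective _).symm
      exact ⟨⟨ConjClasses.mk _, QuotientGroup.mk k, rfl, ho⟩,
        Subtype.ext (ConjClasses.mk_eq_mk_iff_isConj.2 hconj)⟩
    by_cases hcH : ∃ b : Fˣ, b ^ r = c
    · obtain ⟨b, rfl⟩ := hcH
      have hg' : (scal b⁻¹ * g) ^ r = scal 1 := by
        rw [scal_mul_pow, hc, scal, ← map_mul, inv_pow, inv_mul_cancel]
      obtain ⟨s, hs⟩ := exists_ev_eq hr hrq' hg'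
      obtain ⟨f, hf, -⟩ := exists_rep_eq s
      have h1 : ∀ i, ((f i : Fˣ) : F) ^ (q + 1) = 1 := fun i => by
        obtain ⟨m, hm⟩ := hrq
        rw [← Units.val_pow_eq_pow_val, hm, pow_mul, show (f i : Fˣ) ^ r = 1 from (f i).2,
          one_pow, Units.val_one]
      refine ⟨Unitary.diagGU (fun i => ((f i : Fˣ) : F)) h1, b⁻¹, ?_⟩
      have hk : (Unitary.diagGU (q := q) (fun i => ((f i : Fˣ) : F)) h1 : GL (Fin n) F) = rep s :=
        Units.ext (by rw [Unitary.diagGU_val, hf, coe_dg])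
      rw [hk]
      exact isConj_of_charpoly hrq' (rep_pow s) hg' ((charpoly_rep s).trans hs.symm)
    · push Not at hcH
      obtain ⟨a, ha⟩ := exists_norm_one_mul_pow hF hr hr2 hrq c
      have hg' : (scal a * g) ^ r = scal (a ^ r * c) := by
        rw [scal_mul_pow, hc, scal, ← map_mul]
      have hnp : ∀ b : Fˣ, b ^ r ≠ a ^ r * c := fun b hb => hcH (a⁻¹ * b) (by
        rw [mul_pow, hb, inv_pow, inv_mul_cancel_left])
      obtain ⟨hrn, hch⟩ := charpoly_of_not_pow hr hrq' hg' hnp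
      have hm : ((X : F[X]) ^ r - C ((a ^ r * c : Fˣ) : F)).Monic :=
        monic_X_pow_sub_C _ hr.ne_zero
      have hfix : Spec53.conjRecip (Unitary.conjHom hF) (X ^ r - C ((a ^ r * c : Fˣ) : F)) =
          X ^ r - C ((a ^ r * c : Fˣ) : F) :=
        conjRecip_X_pow_sub_C hF hr.pos (by rw [← Units.val_pow_eq_pow_val, ha, Units.val_one])
      obtain ⟨k, hk, hkc⟩ := Spec53.exists_gu_charpoly p hF (n := n) (hm.pow (n / r))
        (by rw [natDegree_pow, natDegree_X_pow_sub_C, Nat.div_mul_cancel hrn])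
        (by rw [coeff_zero_eq_eval_zero]; simp [hr.ne_zero])
        (by
          induction (n / r) with
          | zero => rw [pow_zero]; exact Spec53.conjRecip_one _
          | succ j ih => rw [pow_succ, Spec53.conjRecip_mul, ih, hfix])
      refine ⟨k, a, gl_isConj_of_charpoly_eq p (by rwa [Subgroup.orderOf_coe])
        (coprime_orderOf p hrq' hg') ?_⟩
      rw [hkc, hch]

end CfsgLib.PGUClasses
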